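import Mathlib.GroupTheory.Sylow
import Mathlib.GroupTheory.Nilpotent
import Mathlib.GroupTheory.GroupAction.ConjAct

/-!
General facts on 2-subgroups used for the fusion argument.
-/

set_option autoImplicit false

namespace Cfsg.Agent.H33.G2Two

variable {G : Type*} [Group G]

theorem conjBy_commute {a b : G} (g : G) (h : Commute a b) :
    Commute (g * a * g⁻¹) (g * b * g⁻¹) := by
  simpa using h.map (MulAut.conj g).toMonoidHom

/-- A 2-subgroup centralising a conjugate of an element `z` can be moved into a Sylow subgroup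
centralising `z`, moving that conjugate to `z`. -/
theorem exists_map_centralizer [Finite G] (S : Sylow 2 G) {z x g₀ : G}
    (hz : ∀ s ∈ (S : Subgroup G), Commute s z) (h : g₀ * x * g₀⁻¹ = z) (P : Subgroup G)
    (hP : IsPGroup 2 P) (hPx : ∀ c ∈ P, Commute c x) :
    ∃ g : G, g * x * g⁻¹ = z ∧ ∀ c ∈ P, g * c * g⁻¹ ∈ (S : Subgroup G) := by
  haveI : Fact (Nat.Prime 2) := ⟨Nat.prime_two⟩
  set C := Subgroup.centralizer ({z} : Set G) with hC
  have hSC : (S : Subgroup G) ≤ C := fun s hs =>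
    Subgroup.mem_centralizer_singleton_iff.2 (hz s hs).eq
  set P₀ := P.map (MulAut.conj g₀).toMonoidHom with hP₀
  have hPC : P₀ ≤ C := by
    rintro _ ⟨c, hc, rfl⟩
    rw [hC, Subgroup.mem_centralizer_singleton_iff, ← h]
    simpa using (conjBy_commute g₀ (hPx c hc)).eq
  have hP₀' : IsPGroup 2 (P₀.subgroupOf C) :=
    (hP.map _).of_equiv (Subgroup.subgroupOfEquivOfLe hPC).symm
  obtain ⟨Q, hQ⟩ := hP₀'.exists_le_sylow
  obtain ⟨c, hc⟩ := MulAction.exists_smul_eq C Q (S.subtype hSC)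
  refine ⟨(c : G) * g₀, ?_, fun p hp => ?_⟩
  · calc (c : G) * g₀ * x * ((c : G) * g₀)⁻¹ = c * (g₀ * x * g₀⁻¹) * (c : G)⁻¹ := by group
      _ = _ := by
        rw [h, (Subgroup.mem_centralizer_singleton_iff.1 c.2), mul_inv_cancel_right]
  · have hm : (⟨g₀ * p * g₀⁻¹, hPC ⟨p, hp, rfl⟩⟩ : C) ∈ (Q : Subgroup C) :=
      hQ (show g₀ * p * g₀⁻¹ ∈ P₀ from ⟨p, hp, rfl⟩)
    have hm' : c * ⟨g₀ * p * g₀⁻¹, hPC ⟨p, hp, rfl⟩⟩ * c⁻¹ ∈ ((c • Q : Sylow 2 C) : Subgroup C) := by
      rw [Sylow.coe_subgroup_smul]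
      exact Subgroup.smul_mem_pointwise_smul _ (MulAut.conj c) _ hm
    rw [hc, Sylow.coe_subtype, Subgroup.mem_subgroupOf] at hm'
    simpa [mul_assoc] using hm'

/-- The orbit–stabiliser count for conjugation. -/
theorem card_eq_orbit_mul (K : Subgroup G) (x : G) :
    Nat.card K = ((fun k => k * x * k⁻¹) '' (K : Set G)).ncard *
      Nat.card ↥(K ⊓ Subgroup.centralizer ({x} : Set G)) := by
  letI : MulAction K G := MulAction.compHom G
    ((ConjAct.toConjAct : G ≃* ConjAct G).toMonoidHom.comp K.subtype)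
  have hdef : ∀ (k : K) (y : G), k • y = k.1 * y * k.1⁻¹ := fun k y => ConjAct.toConjAct_smul k.1 y
  rw [← Subgroup.card_mul_index (MulAction.stabilizer K x), mul_comm,
    MulAction.index_stabilizer]
  congr 1
  · congr 1
    ext y
    simp only [MulAction.mem_orbit_iff, Set.mem_image, SetLike.mem_coe]
    constructor
    · rintro ⟨k, rfl⟩; exact ⟨k.1, k.2, (hdef k x).symm⟩
    · rintro ⟨k, hk, rfl⟩; exact ⟨⟨k, hk⟩, hdef _ x⟩
  · refine Nat.card_congr
      { toFun := fun k => ⟨k.1.1, k.1.2, Subgroup.mem_centralizer_singleton_iff.2 ?_⟩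
        invFun := fun k => ⟨⟨k.1, k.2.1⟩, ?_⟩
        left_inv := fun _ => rfl
        right_inv := fun _ => rfl }
    · exact mul_inv_eq_iff_eq_mul.1 ((hdef _ x).symm.trans k.2)
    · exact (hdef _ x).trans
        (mul_inv_eq_iff_eq_mul.2 (Subgroup.mem_centralizer_singleton_iff.1 k.2.2))

/-- A proper subgroup of a 2-group is properly contained in its normaliser there. -/
theorem exists_normalizing [Finite G] {E T : Subgroup G} (hT : IsPGroup 2 T) (hET : E ≤ T)
    (hne : E ≠ T) : ∃ h ∈ T, h ∉ E ∧ h ∈ Subgroup.normalizer (E : Set G) := by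
  haveI : Fact (Nat.Prime 2) := ⟨Nat.prime_two⟩
  haveI : Group.IsNilpotent T := hT.isNilpotent
  have hlt : E.subgroupOf T < ⊤ := by
    rw [lt_top_iff_ne_top, Ne, Subgroup.subgroupOf_eq_top]
    exact fun h => hne (le_antisymm hET h)
  obtain ⟨h, hh, hhE⟩ := SetLike.exists_of_lt
    (Group.normalizerCondition_of_isNilpotent _ hlt)
  refine ⟨h.1, h.2, fun h' => hhE h', ?_⟩
  rw [Subgroup.mem_normalizer_iff] at hh ⊢
  intro e
  constructor
  · intro he
    have := (hh ⟨e, hET he⟩).1 he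
    simpa [Subgroup.mem_subgroupOf] using this
  · intro he
    have hT' : e ∈ T := by
      have := T.mul_mem (T.mul_mem (T.inv_mem h.2) (hET he)) h.2
      simpa [mul_assoc] using this
    exact (hh ⟨e, hT'⟩).2 (by simpa [Subgroup.mem_subgroupOf] using he)

/-- In a finite group an element mapping a subgroup into itself normalises it. -/
theorem mem_normalizer_of_map_le [Finite G] {E : Subgroup G} {g : G}
    (h : ∀ e ∈ E, g * e * g⁻¹ ∈ E) : g ∈ Subgroup.normalizer (E : Set G) := by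
  have hle : E.map (MulAut.conj g).toMonoidHom ≤ E := by
    rintro _ ⟨e, he, rfl⟩; exact h e he
  have heq := Subgroup.eq_of_le_of_card_ge hle
    (by rw [Subgroup.card_map_of_injective (MulAut.conj g).injective])
  rw [Subgroup.mem_normalizer_iff]
  intro e
  refine ⟨h e, fun he => ?_⟩
  rw [← heq] at he
  obtain ⟨e', he', hee⟩ := he
  simp only [MulEquiv.coe_toMonoidHom, MulAut.conj_apply, mul_right_inj, mul_left_inj] at hee
  rwa [← hee]

end Cfsg.Agent.H33.G2Two
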