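import Cfsg.Agent.H33.G2Two.Model

/-!
Involutions of the model and their centralisers.
-/

set_option autoImplicit false

namespace Cfsg.Agent.H33.G2Two.Mdl

variable {n : ℕ}

/-- The central involution. -/
abbrev zc (n : ℕ) : Mdl (2 ^ n) := tr (half n) (half n)

/-- The translation involution `(h, 0)`. -/
abbrev t0 (n : ℕ) : Mdl (2 ^ n) := tr (half n) 0

/-- The translation involution `(0, h)`. -/
abbrev t1 (n : ℕ) : Mdl (2 ^ n) := tr 0 (half n)

/-- The exchange. -/
abbrev sg {N : ℕ} : Mdl N := ⟨0, 0, true, false⟩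

/-- The exchange times the inversion. -/
abbrev sgi {N : ℕ} : Mdl N := ⟨0, 0, true, true⟩

/-- The elements of inverting type. -/
abbrev io {N : ℕ} (a b : ZMod N) : Mdl N := ⟨a, b, false, true⟩

theorem tr_mul {N : ℕ} (u v u' v' : ZMod N) : tr u v * tr u' v' = tr (u + u') (v + v') := by
  simp [mul_def]

theorem t0_mul_t1 : t0 n * t1 n = zc n := by simp [mul_def]

theorem conj_sg_t0 : sg * t0 n * sg⁻¹ = t1 n := by simp [mul_def, inv_def]

theorem commute_zc (hn : 1 ≤ n) (x : Mdl (2 ^ n)) : Commute x (zc n) := by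
  obtain ⟨a, b, k, l⟩ := x
  show _ = _
  cases k <;> cases l <;> simp [mul_def, neg_half hn] <;> constructor <;> ring

theorem involution_cases (hn : 1 ≤ n) {x : Mdl (2 ^ n)} (hx : x * x = 1) (hx1 : x ≠ 1) :
    x = zc n ∨ x = t0 n ∨ x = t1 n ∨ (∃ a b, x = io a b) ∨ (∃ a, x = ⟨a, -a, true, false⟩) ∨
      ∃ a, x = ⟨a, a, true, true⟩ := by
  obtain ⟨a, b, k, l⟩ := x
  cases k <;> cases l
  · simp [mul_def, one_def] at hx
    rcases eq_zero_or_half hn (show 2 * a = 0 by linear_combination hx.1) with rfl | rfl <;>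
      rcases eq_zero_or_half hn (show 2 * b = 0 by linear_combination hx.2) with rfl | rfl
    · exact absurd rfl hx1
    · exact Or.inr (Or.inr (Or.inl rfl))
    · exact Or.inr (Or.inl rfl)
    · exact Or.inl rfl
  · exact Or.inr (Or.inr (Or.inr (Or.inl ⟨a, b, rfl⟩)))
  · refine Or.inr (Or.inr (Or.inr (Or.inr (Or.inl ⟨a, ?_⟩))))
    simp [mul_def, one_def] at hx
    ext <;> try rfl
    show b = -a
    linear_combination hx.1
  · refine Or.inr (Or.inr (Or.inr (Or.inr (Or.inr ⟨a, ?_⟩))))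
    simp [mul_def, one_def] at hx
    ext <;> try rfl
    show b = a
    linear_combination -hx.1

theorem isConj_sg {N : ℕ} (a : ZMod N) : IsConj sg (⟨a, -a, true, false⟩ : Mdl N) :=
  isConj_iff.2 ⟨tr a 0, by rw [conj_tr_sigma]; simp⟩

theorem isConj_sgi {N : ℕ} (a : ZMod N) : IsConj sgi (⟨a, a, true, true⟩ : Mdl N) :=
  isConj_iff.2 ⟨tr a 0, by rw [conj_tr_sigma_iota]; simp⟩

theorem isConj_io (hn : 1 ≤ n) {a b c d : ZMod (2 ^ n)} (h1 : par hn a = par hn c)
    (h2 : par hn b = par hn d) : IsConj (io a b) (io c d) := by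
  obtain ⟨u, hu⟩ := (exists_two_mul_iff hn (c - a)).2 (by rw [map_sub, h1, sub_self])
  obtain ⟨v, hv⟩ := (exists_two_mul_iff hn (d - b)).2 (by rw [map_sub, h2, sub_self])
  exact isConj_iff.2 ⟨tr u v, by rw [conj_tr_iota, hu, hv]; simp⟩

theorem isConj_io_swap {N : ℕ} (a b : ZMod N) : IsConj (io a b) (io b a) :=
  isConj_iff.2 ⟨sg, by simp [mul_def, inv_def]⟩

theorem commute_sg_iff {N : ℕ} (x : Mdl N) : Commute x sg ↔ x.b = x.a := by
  obtain ⟨a, b, k, l⟩ := x
  show _ = _ ↔ _
  cases k <;> cases l <;> simp [mul_def] <;> intro h <;> exact h.symm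

theorem commute_io_zero_iff (hn : 1 ≤ n) {x : Mdl (2 ^ n)} {a b : ZMod (2 ^ n)} (hk : x.k = false)
    (h : Commute x (io a b)) :
    (x.l = false ∧ 2 * x.a = 0 ∧ 2 * x.b = 0) ∨
      (x.l = true ∧ 2 * (x.a - a) = 0 ∧ 2 * (x.b - b) = 0) := by
  obtain ⟨u, v, k, l⟩ := x
  obtain rfl : k = false := hk
  have h' := h.eq
  cases l <;> simp [mul_def] at h'
  · exact Or.inl ⟨rfl, by linear_combination h'.1, by linear_combination h'.2⟩
  · exact Or.inr ⟨rfl, by linear_combination h'.1, by linear_combination h'.2⟩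

theorem par_eq_of_commute_io (hn : 1 ≤ n) {x : Mdl (2 ^ n)} {a b : ZMod (2 ^ n)} (hk : x.k = true)
    (h : Commute x (io a b)) : par hn a = par hn b := by
  obtain ⟨u, v, k, l⟩ := x
  obtain rfl : k = true := hk
  have h' := h.eq
  have e2 : ∀ y : ZMod 2, 2 * y = 0 := by decide
  cases l <;> simp [mul_def] at h'
  · have h1 := congrArg (par hn) h'.1
    simp only [map_add, map_neg, CharTwo.neg_eq] at h1
    linear_combination -h1
  · have h1 := congrArg (par hn) h'.1
    simp only [map_add, map_neg, CharTwo.neg_eq] at h1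
    linear_combination -h1

/-- Eight elements. -/
def eight (a b : ZMod (2 ^ n)) : Set (Mdl (2 ^ n)) :=
  {1, t0 n, t1 n, zc n, io a b, io (a + half n) b, io a (b + half n), io (a + half n) (b + half n)}

theorem ncard_eight (a b : ZMod (2 ^ n)) : (eight a b).ncard ≤ 8 := by
  unfold eight
  repeat' (refine (Set.ncard_insert_le _ _).trans (Nat.succ_le_succ ?_))
  simp

theorem mem_eight (hn : 1 ≤ n) {x : Mdl (2 ^ n)} {a b : ZMod (2 ^ n)} (hk : x.k = false)
    (h : Commute x (io a b)) : x ∈ eight a b := by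
  obtain ⟨u, v, k, l⟩ := x
  obtain rfl : k = false := hk
  rcases commute_io_zero_iff hn rfl h with ⟨hl, h1, h2⟩ | ⟨hl, h1, h2⟩ <;>
    simp only at hl h1 h2 <;> subst hl <;>
    rcases eq_zero_or_half hn h1 with e1 | e1 <;> rcases eq_zero_or_half hn h2 with e2 | e2
  all_goals
    first
      | (obtain rfl := sub_eq_iff_eq_add.1 e1; obtain rfl := sub_eq_iff_eq_add.1 e2)
      | (subst e1; subst e2)
  all_goals simp [eight, one_def, add_comm]

theorem centralizer_io_odd_le (hn : 1 ≤ n) {a b : ZMod (2 ^ n)} (hab : par hn a ≠ par hn b) :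
    {x : Mdl (2 ^ n) | Commute x (io a b)}.ncard ≤ 8 := by
  refine (Set.ncard_le_ncard ?_ (Set.toFinite _)).trans (ncard_eight a b)
  intro x hx
  rcases Bool.eq_false_or_eq_true x.k with hk | hk
  · exact absurd (par_eq_of_commute_io hn hk hx) hab
  · exact mem_eight hn hk hx

theorem centralizer_io_le (hn : 1 ≤ n) (a b : ZMod (2 ^ n)) :
    {x : Mdl (2 ^ n) | Commute x (io a b)}.ncard ≤ 16 := by
  haveI : NeZero (2 ^ n) := ⟨by positivity⟩
  by_cases he : ∃ x₀ : Mdl (2 ^ n), x₀.k = true ∧ Commute x₀ (io a b)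
  · obtain ⟨x₀, hk₀, hc₀⟩ := he
    have hs : {x : Mdl (2 ^ n) | Commute x (io a b)} ⊆ eight a b ∪ (x₀ * ·) '' eight a b := by
      intro x hx
      rcases Bool.eq_false_or_eq_true x.k with hk | hk
      · refine Or.inr ⟨x₀⁻¹ * x, mem_eight hn ?_ (hc₀.inv_left.mul_left hx), mul_inv_cancel_left _ _⟩
        simp [mul_def, inv_def, hk, hk₀]
      · exact Or.inl (mem_eight hn hk hx)
    have h1 := (Set.ncard_le_ncard hs (Set.toFinite _)).trans (Set.ncard_union_le _ _)
    have h2 := Set.ncard_image_le (f := (x₀ * ·)) (s := eight a b) (Set.toFinite _)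
    have h3 := ncard_eight a b
    omega
  · push Not at he
    refine ((Set.ncard_le_ncard (t := eight a b) ?_ (Set.toFinite _)).trans (ncard_eight a b)).trans
      (by norm_num)
    intro x hx
    rcases Bool.eq_false_or_eq_true x.k with hk | hk
    · exact absurd hx (he x hk)
    · exact mem_eight hn hk hx

/-- The common centraliser of the exchange and of an inverting element. -/
theorem centralizer_sg_io_le (hn : 1 ≤ n) (d : ZMod (2 ^ n)) :
    {x : Mdl (2 ^ n) | Commute x sg ∧ Commute x (io d d)}.ncard ≤ 8 := by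
  refine (Set.ncard_le_ncard (t := ({1, zc n, io d d, io (d + half n) (d + half n), sg,
    sg * zc n, sg * io d d, sg * io (d + half n) (d + half n)} : Set (Mdl (2 ^ n)))) ?_
      (Set.toFinite _)).trans ?_
  · intro x ⟨h1, h2⟩
    have key : ∀ y : Mdl (2 ^ n), y.k = false → y.b = y.a → Commute y (io d d) →
        y = 1 ∨ y = zc n ∨ y = io d d ∨ y = io (d + half n) (d + half n) := by
      rintro ⟨u, v, k, l⟩ hk hv hc
      obtain rfl : v = u := hv
      obtain rfl : k = false := hk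
      rcases commute_io_zero_iff hn rfl hc with ⟨hl, e, -⟩ | ⟨hl, e, -⟩ <;>
        simp only at hl e <;> subst hl <;> rcases eq_zero_or_half hn e with e | e
      · subst e; exact Or.inl rfl
      · subst e; exact Or.inr (Or.inl rfl)
      · obtain rfl := sub_eq_zero.1 e; exact Or.inr (Or.inr (Or.inl rfl))
      · obtain rfl := sub_eq_iff_eq_add.1 e
        exact Or.inr (Or.inr (Or.inr (by simp [add_comm])))
    simp only [Set.mem_insert_iff, Set.mem_singleton_iff]
    rw [commute_sg_iff] at h1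
    rcases Bool.eq_false_or_eq_true x.k with hk | hk
    · have hs : (sg : Mdl (2 ^ n)) * sg = 1 := by simp [mul_def, one_def]
      have hxs : x = sg * (sg * x) := by rw [← mul_assoc, hs, one_mul]
      have hc : Commute (sg : Mdl (2 ^ n)) (io d d) := ((commute_sg_iff _).2 rfl).symm
      rcases key (sg * x) (by simp [mul_def, hk]) (by simp [mul_def, h1]) (hc.mul_left h2) with
        e | e | e | e <;> rw [e] at hxs
      · rw [mul_one] at hxs; simp [hxs]
      · simp [hxs]
      · simp [hxs]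
      · simp [hxs]
    · rcases key x hk h1 h2 with e | e | e | e <;> simp [e]
  · repeat' (refine (Set.ncard_insert_le _ _).trans (Nat.succ_le_succ ?_))
    simp

theorem le_centralizer_sg (n : ℕ) : 4 * 2 ^ n ≤ {x : Mdl (2 ^ n) | Commute x sg}.ncard := by
  haveI : NeZero (2 ^ n) := ⟨by positivity⟩
  let e : ZMod (2 ^ n) × Bool × Bool → Mdl (2 ^ n) := fun p => ⟨p.1, p.1, p.2.1, p.2.2⟩
  have he : Function.Injective e := by
    rintro ⟨u, k, l⟩ ⟨u', k', l'⟩ h
    simp only [e, Mdl.mk.injEq] at h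
    obtain ⟨rfl, -, rfl, rfl⟩ := h
    rfl
  have h1 : Nat.card (ZMod (2 ^ n) × Bool × Bool) = 4 * 2 ^ n := by
    rw [Nat.card_prod, Nat.card_prod, Nat.card_zmod, Nat.card_eq_fintype_card, Fintype.card_bool]
    ring
  rw [← h1, ← Set.ncard_univ, ← Set.ncard_image_of_injective _ he]
  refine Set.ncard_le_ncard ?_ (Set.toFinite _)
  rintro _ ⟨p, -, rfl⟩
  exact (commute_sg_iff _).2 rfl

end Cfsg.Agent.H33.G2Two.Mdl
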