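import Cfsg.Agent.H33.G2Two.Model
import Cfsg.Agent.S0065

/-!
Homomorphisms out of the model, and a criterion for their injectivity.
-/

set_option autoImplicit false

namespace Cfsg.Agent.H33.G2Two

variable {H : Type*} [Group H]

theorem pow_val_add {N : ℕ} [NeZero N] {E : H} (hE : E ^ N = 1) (a b : ZMod N) :
    E ^ (a + b).val = E ^ a.val * E ^ b.val := by
  rw [← pow_add, ZMod.val_add]
  conv_rhs => rw [← Nat.mod_add_div (a.val + b.val) N, pow_add, pow_mul, hE, one_pow, mul_one]

theorem pow_val_neg {N : ℕ} [NeZero N] {E : H} (hE : E ^ N = 1) (a : ZMod N) :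
    E ^ (-a).val = (E ^ a.val)⁻¹ := by
  refine eq_inv_of_mul_eq_one_left ?_
  rw [← pow_val_add hE, neg_add_cancel, ZMod.val_zero, pow_zero]

/-- Generators satisfying the relations of the model define a homomorphism. -/
theorem exists_hom {N : ℕ} [NeZero N] (E₁ E₂ S I : H) (h1 : E₁ ^ N = 1) (h2 : E₂ ^ N = 1)
    (hE : Commute E₁ E₂) (hS : S * S = 1) (hI : I * I = 1) (hSI : Commute S I)
    (hSE₁ : S * E₁ * S⁻¹ = E₂) (hSE₂ : S * E₂ * S⁻¹ = E₁)
    (hIE₁ : I * E₁ * I⁻¹ = E₁⁻¹) (hIE₂ : I * E₂ * I⁻¹ = E₂⁻¹) :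
    ∃ f : Mdl N →* H, ∀ x : Mdl N, f x =
      E₁ ^ x.a.val * E₂ ^ x.b.val * (if x.k then S else 1) * (if x.l then I else 1) := by
  have cS : ∀ a b : ZMod N, S * (E₁ ^ a.val * E₂ ^ b.val) = E₁ ^ b.val * E₂ ^ a.val * S := fun a b => by
    have e : S * (E₁ ^ a.val * E₂ ^ b.val) * S⁻¹ = E₁ ^ b.val * E₂ ^ a.val := by
      rw [← MulAut.conj_apply, map_mul, map_pow, map_pow, MulAut.conj_apply, MulAut.conj_apply, hSE₁,
        hSE₂, (hE.pow_pow _ _).eq]
    rw [← e, inv_mul_cancel_right]
  have cI : ∀ a b : ZMod N, I * (E₁ ^ a.val * E₂ ^ b.val) = E₁ ^ (-a).val * E₂ ^ (-b).val * I :=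
    fun a b => by
    have e : I * (E₁ ^ a.val * E₂ ^ b.val) * I⁻¹ = E₁ ^ (-a).val * E₂ ^ (-b).val := by
      rw [← MulAut.conj_apply, map_mul, map_pow, map_pow, MulAut.conj_apply, MulAut.conj_apply, hIE₁,
        hIE₂, inv_pow, inv_pow, pow_val_neg h1, pow_val_neg h2]
    rw [← e, inv_mul_cancel_right]
  refine ⟨MonoidHom.mk' (fun x => E₁ ^ x.a.val * E₂ ^ x.b.val * (if x.k then S else 1) *
    (if x.l then I else 1)) ?_, fun _ => rfl⟩
  rintro ⟨a, b, k, l⟩ ⟨a', b', k', l'⟩
  have step : ∀ a b c d : ZMod N, E₁ ^ (a + c).val * E₂ ^ (b + d).val =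
      E₁ ^ a.val * E₂ ^ b.val * (E₁ ^ c.val * E₂ ^ d.val) := fun a b c d => by
    rw [pow_val_add h1, pow_val_add h2]
    simp only [mul_assoc]
    congr 1
    rw [← mul_assoc, ← mul_assoc, (hE.pow_pow _ _).eq]
  -- push the translation part of the second factor to the left
  set u : H := E₁ ^ a'.val * E₂ ^ b'.val
  have push : ((if k then S else 1) * (if l then I else 1)) * u =
      E₁ ^ (Mdl.sgn l (if k then b' else a')).val * E₂ ^ (Mdl.sgn l (if k then a' else b')).val *
        ((if k then S else 1) * (if l then I else 1)) := by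
    cases k <;> cases l <;> simp only [u, if_true, if_false, one_mul, mul_one, Bool.false_eq_true,
      Mdl.sgn_true, Mdl.sgn_false]
    · exact cI a' b'
    · exact cS a' b'
    · rw [mul_assoc, cI, ← mul_assoc, cS, mul_assoc]
  have push2 : ((if k then S else 1) * (if l then I else 1)) * ((if k' then S else 1) * (if l' then I else 1)) =
      (if xor k k' then S else 1) * (if xor l l' then I else 1) := by
    cases k <;> cases l <;> cases k' <;> cases l' <;>
      simp only [if_true, if_false, one_mul, mul_one, Bool.false_eq_true, Bool.bne_false,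
        Bool.false_bne, Bool.bne_true, Bool.not_true, Bool.not_false, ← mul_assoc, hS, hI,
        hSI.eq.symm]
    all_goals first
      | rfl
      | (simp only [mul_assoc, hI, hS, mul_one]; done)
      | (rw [hSI.eq]; simp only [mul_assoc, hI, hS, mul_one, one_mul]; done)
      | (rw [mul_assoc, mul_assoc, ← mul_assoc I, ← hSI.eq]; simp only [mul_assoc, hI, mul_one]
         rw [← mul_assoc, hS, one_mul])
  show E₁ ^ (a + Mdl.sgn l (if k then b' else a')).val * E₂ ^ (b + Mdl.sgn l (if k then a' else b')).val *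
      (if xor k k' then S else 1) * (if xor l l' then I else 1) =
    E₁ ^ a.val * E₂ ^ b.val * (if k then S else 1) * (if l then I else 1) *
      (u * (if k' then S else 1) * (if l' then I else 1))
  rw [step, mul_assoc, ← push2]
  calc _ = E₁ ^ a.val * E₂ ^ b.val * ((E₁ ^ (Mdl.sgn l (if k then b' else a')).val *
          E₂ ^ (Mdl.sgn l (if k then a' else b')).val * ((if k then S else 1) * (if l then I else 1))) *
          ((if k' then S else 1) * (if l' then I else 1))) := by simp only [mul_assoc]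
    _ = _ := by rw [← push]; simp only [mul_assoc]

namespace Mdl

theorem eq_of_mem_center {n : ℕ} (hn : 2 ≤ n) {x : Mdl (2 ^ n)}
    (hx : x ∈ Subgroup.center (Mdl (2 ^ n))) : x = 1 ∨ x = tr (half n) (half n) := by
  rw [Subgroup.mem_center_iff] at hx
  obtain ⟨a, b, k, l⟩ := x
  have h1 : (1 : ZMod (2 ^ n)) ≠ 0 := by
    haveI : Fact (1 < 2 ^ n) := ⟨Nat.one_lt_two_pow (by omega)⟩
    exact one_ne_zero
  have h2 : (2 : ZMod (2 ^ n)) ≠ 0 := fun h => by
    have h' : 2 ^ n ∣ 2 := (ZMod.natCast_eq_zero_iff 2 (2 ^ n)).1 (by exact_mod_cast h)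
    have := Nat.le_of_dvd (by norm_num) h'
    have : 4 ≤ 2 ^ n := le_trans (by norm_num) (Nat.pow_le_pow_right (by norm_num) hn)
    omega
  have e1 := hx (tr 1 0)
  rw [Mdl.ext_iff] at e1
  simp only [mul_def, tr, sgn_false, Bool.false_eq_true, if_false] at e1
  have e2 := hx ⟨0, 0, false, true⟩
  rw [Mdl.ext_iff] at e2
  simp only [mul_def, Bool.false_eq_true, if_false, sgn_true] at e2
  have e3 := hx ⟨0, 0, true, false⟩
  rw [Mdl.ext_iff] at e3
  simp only [mul_def, sgn_false, if_true] at e3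
  cases k
  · cases l
    · simp at e2 e3
      have ha : 2 * a = 0 := by linear_combination -e2.1
      rcases eq_zero_or_half (by omega) ha with rfl | rfl
      · left; rw [e3.1]; rfl
      · right; rw [e3.1]
    · exfalso
      simp at e1
      exact h2 (by linear_combination e1)
  · exfalso
    cases l <;> simp at e1
    · exact h1 e1
    · exact h1 e1

theorem isPGroup (n : ℕ) : IsPGroup 2 (Mdl (2 ^ n)) :=
  IsPGroup.of_card (n := 2 * n + 2) (by rw [card, ← pow_mul, pow_add]; ring)

/-- A homomorphism which does not kill the central involution is injective. -/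
theorem injective_of_center {n : ℕ} (hn : 2 ≤ n) (f : Mdl (2 ^ n) →* H)
    (hf : f (tr (half n) (half n)) ≠ 1) : Function.Injective f := by
  rw [← MonoidHom.ker_eq_bot_iff]
  by_contra hne
  haveI : Group.IsNilpotent (Mdl (2 ^ n)) := (isPGroup n).isNilpotent
  apply Cfsg.Agent.S0065.result f.ker hne
  rw [Subgroup.eq_bot_iff_forall]
  intro x hx
  rcases eq_of_mem_center hn hx.2 with rfl | rfl
  · rfl
  · exact absurd (MonoidHom.mem_ker.1 hx.1) hf

end Mdl

end Cfsg.Agent.H33.G2Two
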