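import Cfsg.Agent.H93.G2InvolutionApps
import Cfsg.Agent.H33.G2Two.Hom
import Mathlib

/-!
A Sylow 2-subgroup of `G₂(q)`, `q` odd, is isomorphic to the model.
-/

set_option autoImplicit false

namespace Cfsg.Agent.H33.G2Two

open Cfsg.Lie Cfsg.Agent.H93.G2Quat Matrix
open scoped QuadraticAlgebra

variable {F : Type*} [Field F] {H : Type*} [Group H]

/-- `g` is the image of the pair of matrices `(p, q)`. -/
def Rep (χ : ↥(pairs F) →* H) (p q : Matrix (Fin 2) (Fin 2) F) (g : H) : Prop :=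
  ∃ w : ↥(pairs F), ((w : GL (Fin 2) F × GL (Fin 2) F).1 : Matrix (Fin 2) (Fin 2) F) = p ∧
    ((w : GL (Fin 2) F × GL (Fin 2) F).2 : Matrix (Fin 2) (Fin 2) F) = q ∧ χ w = g

variable {χ : ↥(pairs F) →* H}

theorem Rep.exists_of_det {p q : Matrix (Fin 2) (Fin 2) F} (χ : ↥(pairs F) →* H) (hd : p.det ≠ 0)
    (hpq : p.det = q.det) : ∃ g, Rep χ p q g :=
  ⟨_, ⟨(GeneralLinearGroup.mkOfDetNeZero p hd, GeneralLinearGroup.mkOfDetNeZero q (hpq ▸ hd)),
    mem_pairs.2 hpq⟩, rfl, rfl, rfl⟩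

theorem Rep.mul {p q p' q' : Matrix (Fin 2) (Fin 2) F} {g g' : H} (h : Rep χ p q g)
    (h' : Rep χ p' q' g') : Rep χ (p * p') (q * q') (g * g') := by
  obtain ⟨w, rfl, rfl, rfl⟩ := h
  obtain ⟨w', rfl, rfl, rfl⟩ := h'
  exact ⟨w * w', rfl, rfl, map_mul χ w w'⟩

theorem Rep.one : Rep χ 1 1 1 := ⟨1, rfl, rfl, map_one χ⟩

theorem Rep.pow {p q : Matrix (Fin 2) (Fin 2) F} {g : H} (h : Rep χ p q g) :
    ∀ m : ℕ, Rep χ (p ^ m) (q ^ m) (g ^ m)
  | 0 => by simpa using Rep.one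
  | m + 1 => by
    rw [pow_succ, pow_succ, pow_succ]
    exact (Rep.pow h m).mul h

/-- Images of proportional pairs agree. -/
theorem Rep.eq (hker : χ.ker = (phi F).ker) {p q p' q' : Matrix (Fin 2) (Fin 2) F} {g g' : H}
    (h : Rep χ p q g) (h' : Rep χ p' q' g') (c : F) (h1 : p = c • p') (h2 : q = c • q') : g = g' := by
  obtain ⟨w, rfl, rfl, rfl⟩ := h
  obtain ⟨w', rfl, rfl, rfl⟩ := h'
  refine (MonoidHom.eq_iff (f := χ)).2 ?_
  rw [hker, MonoidHom.mem_ker]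
  have e1 : ((w'⁻¹ * w : ↥(pairs F)) : GL (Fin 2) F × GL (Fin 2) F).1.1 = c • 1 := by
    show ((((w' : GL (Fin 2) F × GL (Fin 2) F).1)⁻¹ : GL (Fin 2) F) : Matrix (Fin 2) (Fin 2) F) *
      ((w : GL (Fin 2) F × GL (Fin 2) F).1 : Matrix (Fin 2) (Fin 2) F) = _
    rw [h1, Matrix.mul_smul, Units.inv_mul]
  have e2 : ((w'⁻¹ * w : ↥(pairs F)) : GL (Fin 2) F × GL (Fin 2) F).2.1 = c • 1 := by
    show ((((w' : GL (Fin 2) F × GL (Fin 2) F).2)⁻¹ : GL (Fin 2) F) : Matrix (Fin 2) (Fin 2) F) *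
      ((w : GL (Fin 2) F × GL (Fin 2) F).2 : Matrix (Fin 2) (Fin 2) F) = _
    rw [h2, Matrix.mul_smul, Units.inv_mul]
  refine phi_eq_one (Units.ext (e1.trans e2.symm)) fun M => ?_
  rw [e1]
  exact (Commute.one_left M).smul_left c

theorem Rep.eq_one (hker : χ.ker = (phi F).ker) {p q : Matrix (Fin 2) (Fin 2) F} {g : H}
    (h : Rep χ p q g) (c : F) (h1 : p = c • 1) (h2 : q = c • 1) : g = 1 :=
  h.eq hker Rep.one c h1 h2

theorem rep_negPair : Rep χ 1 (-1) (χ (negPair F)) := ⟨negPair F, rfl, rfl, rfl⟩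

/-- The conclusion: an embedding of the model. -/
def HasModel (n : ℕ) (H : Type*) [Group H] : Prop :=
  ∃ f : Mdl (2 ^ n) →* H, Function.Injective f

theorem hasModel_of_rep (hker : χ.ker = (phi F).ker) (hneg : χ (negPair F) ≠ 1) {n : ℕ} (hn : 2 ≤ n)
    {p₁ q₁ p₂ q₂ ps qs pi qi : Matrix (Fin 2) (Fin 2) F} {E₁ E₂ S I : H}
    (r1 : Rep χ p₁ q₁ E₁) (r2 : Rep χ p₂ q₂ E₂) (rS : Rep χ ps qs S) (rI : Rep χ pi qi I)
    (a1 : ∃ c : F, p₁ ^ 2 ^ n = c • 1 ∧ q₁ ^ 2 ^ n = c • 1)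
    (a2 : ∃ c : F, p₂ ^ 2 ^ n = c • 1 ∧ q₂ ^ 2 ^ n = c • 1)
    (a12 : p₁ * p₂ = p₂ * p₁ ∧ q₁ * q₂ = q₂ * q₁)
    (aS : ∃ c : F, ps * ps = c • 1 ∧ qs * qs = c • 1)
    (aI : ∃ c : F, pi * pi = c • 1 ∧ qi * qi = c • 1)
    (aSI : ∃ c : F, ps * pi = c • (pi * ps) ∧ qs * qi = c • (qi * qs))
    (aS1 : ps * p₁ = p₂ * ps ∧ qs * q₁ = q₂ * qs)
    (aS2 : ps * p₂ = p₁ * ps ∧ qs * q₂ = q₁ * qs)
    (aI1 : ∃ c : F, pi * p₁ * pi * p₁ = c • 1 ∧ qi * q₁ * qi * q₁ = c • 1)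
    (aI2 : ∃ c : F, pi * p₂ * pi * p₂ = c • 1 ∧ qi * q₂ * qi * q₂ = c • 1)
    (az : ∃ c : F, p₁ ^ 2 ^ (n - 1) * p₂ ^ 2 ^ (n - 1) = c • 1 ∧
      q₁ ^ 2 ^ (n - 1) * q₂ ^ 2 ^ (n - 1) = c • -1) :
    HasModel n H := by
  haveI : NeZero (2 ^ n) := ⟨by positivity⟩
  obtain ⟨c, a, b⟩ := a1; have h1 : E₁ ^ 2 ^ n = 1 := (r1.pow _).eq_one hker c a b
  obtain ⟨c, a, b⟩ := a2; have h2 : E₂ ^ 2 ^ n = 1 := (r2.pow _).eq_one hker c a b
  have hE : Commute E₁ E₂ :=
    (r1.mul r2).eq hker (r2.mul r1) 1 (by rw [one_smul, a12.1]) (by rw [one_smul, a12.2])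
  obtain ⟨c, a, b⟩ := aS; have hS : S * S = 1 := (rS.mul rS).eq_one hker c a b
  obtain ⟨c, a, b⟩ := aI; have hI : I * I = 1 := (rI.mul rI).eq_one hker c a b
  obtain ⟨c, a, b⟩ := aSI; have hSI : Commute S I := (rS.mul rI).eq hker (rI.mul rS) c a b
  have hS1 : S * E₁ * S⁻¹ = E₂ := mul_inv_eq_of_eq_mul <|
    (rS.mul r1).eq hker (r2.mul rS) 1 (by rw [one_smul, aS1.1]) (by rw [one_smul, aS1.2])
  have hS2 : S * E₂ * S⁻¹ = E₁ := mul_inv_eq_of_eq_mul <|
    (rS.mul r2).eq hker (r1.mul rS) 1 (by rw [one_smul, aS2.1]) (by rw [one_smul, aS2.2])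
  have hI' : I⁻¹ = I := inv_eq_of_mul_eq_one_left hI
  obtain ⟨c, a, b⟩ := aI1
  have hI1 : I * E₁ * I⁻¹ = E₁⁻¹ := by
    rw [hI']; exact eq_inv_of_mul_eq_one_left ((((rI.mul r1).mul rI).mul r1).eq_one hker c a b)
  obtain ⟨c, a, b⟩ := aI2
  have hI2 : I * E₂ * I⁻¹ = E₂⁻¹ := by
    rw [hI']; exact eq_inv_of_mul_eq_one_left ((((rI.mul r2).mul rI).mul r2).eq_one hker c a b)
  obtain ⟨f, hf⟩ := exists_hom E₁ E₂ S I h1 h2 hE hS hI hSI hS1 hS2 hI1 hI2
  refine ⟨f, Mdl.injective_of_center hn f ?_⟩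
  have hv : (half n).val = 2 ^ (n - 1) :=
    ZMod.val_cast_of_lt (Nat.pow_lt_pow_right (by norm_num) (by omega))
  rw [hf]
  simp only [Bool.false_eq_true, if_false, mul_one, hv]
  obtain ⟨c, a, b⟩ := az
  rw [((r1.pow _).mul (r2.pow _)).eq hker rep_negPair c a b]
  exact hneg

/-! ### Arithmetic -/

theorem factorization_two_pow_mul {e o : ℕ} (ho : Odd o) : (2 ^ e * o).factorization 2 = e := by
  rw [Nat.factorization_mul (by positivity) (by rintro rfl; simp at ho)]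
  simp [Nat.Prime.factorization_pow Nat.prime_two, Nat.factorization_eq_zero_of_not_dvd,
    ho.not_two_dvd_nat]

theorem diag_pow (a b : F) : ∀ m : ℕ,
    (!![a, 0; 0, b] : Matrix (Fin 2) (Fin 2) F) ^ m = !![a ^ m, 0; 0, b ^ m]
  | 0 => by simp [Matrix.one_fin_two]
  | m + 1 => by
    rw [pow_succ, diag_pow a b m, Matrix.mul_fin_two]
    simp [pow_succ]

variable [Fintype F]

/-- The case `q ≡ 1 (mod 4)`. -/
theorem hasModel_one (hker : χ.ker = (phi F).ker) (hneg : χ (negPair F) ≠ 1) {n m : ℕ} (hn : 2 ≤ n)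
    (hm : Odd m) (hq : Fintype.card F - 1 = 2 ^ n * m) (hsq : IsSquare (-1 : F)) :
    HasModel n H := by
  obtain ⟨i, hi⟩ := hsq
  obtain ⟨g, hg⟩ := IsCyclic.exists_generator (α := Fˣ)
  have hog : orderOf g = 2 ^ n * m := by
    rw [orderOf_eq_card_of_forall_mem_zpowers hg, Nat.card_units, Nat.card_eq_fintype_card, hq]
  have how : orderOf (g ^ m) = 2 ^ n := by
    rw [orderOf_pow_of_dvd hm.pos.ne' (hog ▸ dvd_mul_left m _), hog, Nat.mul_div_cancel _ hm.pos]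
  set w : F := ((g ^ m : Fˣ) : F) with hw
  have hw0 : w ≠ 0 := Units.ne_zero _
  have how' : orderOf w = 2 ^ n := by rw [hw, orderOf_units, how]
  have hwN : w ^ 2 ^ n = 1 := by rw [← how', pow_orderOf_eq_one]
  have hwh : w ^ 2 ^ (n - 1) = -1 := by
    refine (sq_eq_one_iff.1 ?_).resolve_left fun h => ?_
    · rw [← pow_mul, ← pow_succ, show n - 1 + 1 = n by omega, hwN]
    · have := Nat.le_of_dvd (by positivity) (orderOf_dvd_of_pow_eq_one h)
      rw [how'] at this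
      have : 2 ^ (n - 1) < 2 ^ n := Nat.pow_lt_pow_right (by norm_num) (by omega)
      omega
  obtain ⟨E₁, r1⟩ := Rep.exists_of_det χ (p := !![1, 0; 0, w]) (q := !![w, 0; 0, 1])
    (by simpa [Matrix.det_fin_two] using hw0) (by simp [Matrix.det_fin_two])
  obtain ⟨E₂, r2⟩ := Rep.exists_of_det χ (p := !![1, 0; 0, w]) (q := !![1, 0; 0, w])
    (by simpa [Matrix.det_fin_two] using hw0) rfl
  obtain ⟨S, rS⟩ := Rep.exists_of_det χ (p := !![1, 0; 0, -1]) (q := !![0, -i; i, 0])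
    (by simp [Matrix.det_fin_two]) (by simp [Matrix.det_fin_two, ← hi])
  obtain ⟨I, rI⟩ := Rep.exists_of_det χ (p := !![0, 1; 1, 0]) (q := !![0, 1; 1, 0])
    (by simp [Matrix.det_fin_two]) rfl
  refine hasModel_of_rep hker hneg hn r1 r2 rS rI ⟨1, ?_, ?_⟩ ⟨1, ?_, ?_⟩ ⟨?_, ?_⟩ ⟨1, ?_, ?_⟩
    ⟨1, ?_, ?_⟩ ⟨-1, ?_, ?_⟩ ⟨?_, ?_⟩ ⟨?_, ?_⟩ ⟨w, ?_, ?_⟩ ⟨w, ?_, ?_⟩ ⟨1, ?_, ?_⟩
  all_goals
    simp only [diag_pow, hwN, hwh, one_pow, one_smul, Matrix.mul_fin_two, Matrix.one_fin_two]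
  all_goals
    ext a b
    fin_cases a <;> fin_cases b <;> simp [← hi, mul_comm]

/-- The matrix of an element of the quadratic algebra. -/
def qMat (u : QuadraticAlgebra F (-1) 0) : Matrix (Fin 2) (Fin 2) F := !![u.re, -u.im; u.im, u.re]

omit [Fintype F] in
theorem qMat_mul (u v : QuadraticAlgebra F (-1) 0) : qMat (u * v) = qMat u * qMat v := by
  ext a b; fin_cases a <;> fin_cases b <;> simp [qMat, Matrix.mul_apply, Fin.sum_univ_two] <;> ring

omit [Fintype F] in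
theorem qMat_one : qMat (1 : QuadraticAlgebra F (-1) 0) = 1 := by
  ext a b; fin_cases a <;> fin_cases b <;> simp [qMat]

omit [Fintype F] in
theorem qMat_neg_one : qMat (-1 : QuadraticAlgebra F (-1) 0) = (-1 : F) • 1 := by
  ext a b; fin_cases a <;> fin_cases b <;> simp [qMat]

omit [Fintype F] in
theorem qMat_pow (u : QuadraticAlgebra F (-1) 0) : ∀ m : ℕ, qMat (u ^ m) = qMat u ^ m
  | 0 => by simp [qMat_one]
  | m + 1 => by rw [pow_succ, pow_succ, qMat_mul, qMat_pow u m]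

/-- The case `q ≡ 3 (mod 4)`: the element of the quadratic extension. -/
theorem exists_z {n k m : ℕ} (hk : Odd k) (hm : Odd m) (hn : 2 ≤ n)
    (hq1 : Fintype.card F - 1 = 2 * k) (hq2 : Fintype.card F + 1 = 2 ^ n * m)
    (hns : ¬ IsSquare (-1 : F)) :
    ∃ z : QuadraticAlgebra F (-1) 0, z ^ 2 ^ n = -1 ∧ z.re * z.re + z.im * z.im = -1 := by
  haveI : Fact (∀ r : F, r ^ 2 ≠ -1 + 0 * r) :=
    ⟨fun r h => hns ⟨r, by rw [← pow_two, h, zero_mul, add_zero]⟩⟩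
  haveI : Finite (QuadraticAlgebra F (-1) 0) := Finite.of_equiv _ (QuadraticAlgebra.equivProd _ _).symm
  haveI : Fintype (QuadraticAlgebra F (-1) 0) := Fintype.ofFinite _
  have hcard : Nat.card (QuadraticAlgebra F (-1) 0)ˣ = 2 ^ (n + 1) * (k * m) := by
    rw [Nat.card_units, Nat.card_congr (QuadraticAlgebra.equivProd (-1 : F) 0), Nat.card_prod,
      Nat.card_eq_fintype_card]
    have h1 : Fintype.card F = 2 * k + 1 := by have := hk.pos; omega
    have h2 : 2 ^ (n + 1) * (k * m) + 1 = Fintype.card F * Fintype.card F := by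
      calc 2 ^ (n + 1) * (k * m) + 1 = 2 * k * (2 ^ n * m) + 1 := by ring
        _ = _ := by rw [← hq2, h1]; ring
    omega
  obtain ⟨g, hg⟩ := IsCyclic.exists_generator (α := (QuadraticAlgebra F (-1) 0)ˣ)
  have hog : orderOf g = 2 ^ (n + 1) * (k * m) := by
    rw [orderOf_eq_card_of_forall_mem_zpowers hg, hcard]
  have hkm : Odd (k * m) := hk.mul hm
  have hoz : orderOf (g ^ (k * m)) = 2 ^ (n + 1) := by
    rw [orderOf_pow_of_dvd hkm.pos.ne' (hog ▸ dvd_mul_left _ _), hog, Nat.mul_div_cancel _ hkm.pos]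
  set u : (QuadraticAlgebra F (-1) 0)ˣ := g ^ (k * m) with hu
  have hoz' : orderOf (u : QuadraticAlgebra F (-1) 0) = 2 ^ (n + 1) := by rw [orderOf_units, hoz]
  refine ⟨u, (sq_eq_one_iff.1 ?_).resolve_left fun h => ?_, ?_⟩
  · rw [← pow_mul, ← pow_succ, ← hoz', pow_orderOf_eq_one]
  · have := Nat.le_of_dvd (by positivity) (orderOf_dvd_of_pow_eq_one h)
    rw [hoz'] at this
    have : 2 ^ n < 2 ^ (n + 1) := Nat.pow_lt_pow_right (by norm_num) (by omega)
    omega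
  -- the norm
  let Nu : (QuadraticAlgebra F (-1) 0)ˣ →* Fˣ := Units.map QuadraticAlgebra.norm
  have hNdef : ∀ v : QuadraticAlgebra F (-1) 0, QuadraticAlgebra.norm v = v.re * v.re + v.im * v.im :=
    fun v => by rw [QuadraticAlgebra.norm_def]; ring
  have hodd : Fintype.card F % 2 = 1 := by have := hk.pos; omega
  have hgen : orderOf (Nu g) = 2 * k := by
    obtain ⟨gF, hgF⟩ := IsCyclic.exists_generator (α := Fˣ)
    have hoF : orderOf gF = 2 * k := by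
      rw [orderOf_eq_card_of_forall_mem_zpowers hgF, Nat.card_units, Nat.card_eq_fintype_card, hq1]
    refine Nat.dvd_antisymm (hoF ▸ ?_) (hoF ▸ ?_)
    · rw [orderOf_eq_card_of_forall_mem_zpowers hgF]
      exact orderOf_dvd_natCard _
    · obtain ⟨x, y, hxy⟩ := FiniteField.exists_root_sum_quadratic (R := F)
        (f := Polynomial.X ^ 2) (g := Polynomial.X ^ 2 - Polynomial.C (gF : F))
        (Polynomial.degree_X_pow 2) (Polynomial.degree_X_pow_sub_C (by norm_num) _) hodd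
      simp only [Polynomial.eval_pow, Polynomial.eval_X, Polynomial.eval_sub, Polynomial.eval_C] at hxy
      have hN : QuadraticAlgebra.norm (⟨x, y⟩ : QuadraticAlgebra F (-1) 0) = gF := by
        rw [hNdef]; linear_combination hxy
      have hu' : IsUnit (⟨x, y⟩ : QuadraticAlgebra F (-1) 0) := by
        rw [QuadraticAlgebra.isUnit_iff_norm_isUnit, hN]; exact Units.isUnit gF
      obtain ⟨j, hj⟩ := hg hu'.unit
      have e : gF = Nu g ^ j := by
        rw [← map_zpow]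
        simp only at hj
        rw [hj]
        ext
        exact hN.symm
      rw [e]
      exact orderOf_dvd_of_mem_zpowers ⟨j, rfl⟩
  have hNu : ((u : QuadraticAlgebra F (-1) 0).re * (u : QuadraticAlgebra F (-1) 0).re +
      (u : QuadraticAlgebra F (-1) 0).im * (u : QuadraticAlgebra F (-1) 0).im) = ((Nu u : Fˣ) : F) := by
    rw [← hNdef]; rfl
  rw [hNu]
  refine (sq_eq_one_iff.1 ?_).resolve_left fun h => ?_
  · rw [← Units.val_pow_eq_pow_val]
    have h1 : Nu u ^ 2 ^ (n + 1) = 1 := by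
      rw [← map_pow, ← hoz, pow_orderOf_eq_one, map_one]
    have h2 : Nu u ^ (2 * k) = 1 := by
      rw [hu, map_pow, ← pow_mul, mul_comm, pow_mul, ← hgen, pow_orderOf_eq_one, one_pow]
    have h3 := pow_gcd_eq_one.2 ⟨h1, h2⟩
    rw [pow_succ', Nat.gcd_mul_left, Nat.Coprime.gcd_eq_one (hk.coprime_two_left.pow_left n),
      mul_one] at h3
    rw [h3, Units.val_one]
  · have h' : Nu g ^ (k * m) = 1 := by rw [← map_pow, ← hu]; exact Units.ext h
    have h2 : 2 ∣ k * m := (dvd_mul_right 2 k).trans (hgen ▸ orderOf_dvd_of_pow_eq_one h')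
    exact hkm.not_two_dvd_nat h2

/-- The case `q ≡ 3 (mod 4)`. -/
theorem hasModel_three (hker : χ.ker = (phi F).ker) (hneg : χ (negPair F) ≠ 1) {n : ℕ} (hn : 2 ≤ n)
    (z : QuadraticAlgebra F (-1) 0) (hz : z ^ 2 ^ n = -1) (hN : z.re * z.re + z.im * z.im = -1) :
    HasModel n H := by
  set x := z.re with hx
  set y := z.im with hy
  have hp : qMat z = !![x, -y; y, x] := rfl
  have hs : qMat (star z) = !![x, y; -y, x] := by simp [qMat, hx, hy]
  have hh : z * star z = -1 := by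
    ext <;> simp [← hx, ← hy]
    · linear_combination hN
    · ring
  obtain ⟨E₁, r1⟩ := Rep.exists_of_det χ (p := qMat z) (q := qMat z)
    (by rw [hp, Matrix.det_fin_two]; simp [hN]) rfl
  obtain ⟨E₂, r2⟩ := Rep.exists_of_det χ (p := qMat z) (q := qMat (star z))
    (by rw [hp, Matrix.det_fin_two]; simp [hN]) (by rw [hp, hs]; simp [Matrix.det_fin_two])
  obtain ⟨S, rS⟩ := Rep.exists_of_det χ (p := !![0, -1; 1, 0]) (q := !![x, -y; -y, -x])
    (by simp [Matrix.det_fin_two]) (by simp [Matrix.det_fin_two]; linear_combination hN)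
  obtain ⟨I, rI⟩ := Rep.exists_of_det χ (p := !![-y, -x; -x, y]) (q := !![-y, -x; -x, y])
    (by intro h; simp [Matrix.det_fin_two] at h; exact one_ne_zero (by linear_combination h + hN)) rfl
  have hzs : (star z) ^ 2 ^ n = -1 := by rw [← star_pow, hz, star_neg, star_one]
  have hh2 : z ^ 2 ^ (n - 1) * z ^ 2 ^ (n - 1) = -1 := by
    rw [← pow_add, ← two_mul, ← pow_succ', show n - 1 + 1 = n by omega, hz]
  have hh3 : z ^ 2 ^ (n - 1) * star z ^ 2 ^ (n - 1) = 1 := by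
    rw [← mul_pow, hh, Even.neg_one_pow]
    exact (Nat.even_pow' (by omega)).2 even_two
  refine hasModel_of_rep hker hneg hn r1 r2 rS rI ⟨-1, ?_, ?_⟩ ⟨-1, ?_, ?_⟩ ⟨?_, ?_⟩ ⟨-1, ?_, ?_⟩
    ⟨-1, ?_, ?_⟩ ⟨-1, ?_, ?_⟩ ⟨?_, ?_⟩ ⟨?_, ?_⟩ ⟨1, ?_, ?_⟩ ⟨1, ?_, ?_⟩ ⟨-1, ?_, ?_⟩
  · rw [← qMat_pow, hz, qMat_neg_one]
  · rw [← qMat_pow, hz, qMat_neg_one]
  · rw [← qMat_pow, hz, qMat_neg_one]
  · rw [← qMat_pow, hzs, qMat_neg_one]
  · rw [← qMat_mul]
  · rw [← qMat_mul, ← qMat_mul, mul_comm]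
  iterate 14
    · simp only [hp, hs, Matrix.mul_fin_two, Matrix.one_fin_two]
      ext a b
      fin_cases a <;> fin_cases b <;> simp <;>
        first
          | ring1
          | linear_combination hN
          | linear_combination -hN
          | linear_combination (x * x + y * y - 1) * hN
          | linear_combination -(x * x + y * y - 1) * hN
  · rw [← qMat_pow, ← qMat_mul, hh2, qMat_neg_one]
  · rw [← qMat_pow, ← qMat_pow, ← qMat_mul, hh3, qMat_one]; simp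

/-- A Sylow 2-subgroup of `G₂(q)`, `q` odd, is isomorphic to the model. -/
theorem exists_model_equiv (hF : Odd (Fintype.card F)) (P : Sylow 2 ↥(chevG2.group F)) :
    ∃ n, 2 ≤ n ∧ Nonempty (Mdl (2 ^ n) ≃* ↥(P : Subgroup ↥(chevG2.group F))) := by
  obtain ⟨χ, hidx, hker, -, hcard, -⟩ := Cfsg.Agent.H93.G2Inv.exists_chi (F := F) hF
  have hneg : χ (negPair F) ≠ 1 := by
    intro h
    have h' : negPair F ∈ (phi F).ker := by rw [← hker]; exact h
    obtain ⟨e, -⟩ := phi_ker (MonoidHom.mem_ker.1 h')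
    have e' := congrArg (fun A : GL (Fin 2) F => (A : Matrix (Fin 2) (Fin 2) F) 0 0) e
    simp [negPair] at e'
    exact Cfsg.Agent.H6.two_ne_of_odd rfl hF (by linear_combination e')
  have key : ∀ n o, HasModel n ↥(chevG2.group F) → Odd o →
      Fintype.card F ^ 2 - 1 = 2 ^ (n + 1) * o →
      Nonempty (Mdl (2 ^ n) ≃* ↥(P : Subgroup ↥(chevG2.group F))) := by
    rintro n o ⟨f, hf⟩ ho hq
    haveI : NeZero (2 ^ n) := ⟨by positivity⟩
    have hG : (Nat.card ↥(chevG2.group F)).factorization 2 = 2 * n + 2 := by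
      rw [← χ.range.card_mul_index, hcard, hq, show Fintype.card F ^ 2 * (2 ^ (n + 1) * o) ^ 2 *
        χ.range.index = 2 ^ (2 * n + 2) * (Fintype.card F ^ 2 * o ^ 2 * χ.range.index) by ring]
      exact factorization_two_pow_mul ((hF.pow.mul ho.pow).mul (Nat.odd_iff.2 hidx))
    have hR : Nat.card f.range = 2 ^ (Nat.card ↥(chevG2.group F)).factorization 2 := by
      rw [hG, ← Nat.card_congr (MonoidHom.ofInjective hf).toEquiv, Mdl.card]; ring
    haveI : Fact (Nat.Prime 2) := ⟨Nat.prime_two⟩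
    exact ⟨(MonoidHom.ofInjective hf).trans
      ((MulEquiv.subgroupCongr (Sylow.coe_ofCard f.range hR).symm).trans
        ((Sylow.ofCard f.range hR).equiv P))⟩
  obtain ⟨r, hr⟩ := hF
  have hr0 : 0 < r := by have := Fintype.one_lt_card (α := F); omega
  by_cases hsq : IsSquare (-1 : F)
  · have h4 := FiniteField.isSquare_neg_one_iff.1 hsq
    obtain ⟨n, m, hm, hn⟩ := Nat.exists_eq_two_pow_mul_odd (n := Fintype.card F - 1) (by omega)
    have hn2 : 2 ≤ n := by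
      by_contra hlt
      rcases n with _ | _ | n
      · obtain ⟨m', rfl⟩ := hm; simp at hn; omega
      · obtain ⟨m', rfl⟩ := hm; simp at hn; omega
      · omega
    obtain ⟨o, ho⟩ : ∃ o, r + 1 = 2 * o + 1 := ⟨r / 2, by omega⟩
    refine ⟨n, hn2, key n (m * (r + 1)) (hasModel_one hker hneg hn2 hm hn hsq)
      (hm.mul ⟨o, ho⟩) ?_⟩
    calc Fintype.card F ^ 2 - 1 = (Fintype.card F - 1) * (2 * (r + 1)) := by
          rw [hr]; simp; ring_nf; omega
      _ = _ := by rw [hn]; ring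
  · have h4 : Fintype.card F % 4 = 3 := by
      by_contra h
      exact hsq (FiniteField.isSquare_neg_one_iff.2 h)
    obtain ⟨n, m, hm, hn⟩ := Nat.exists_eq_two_pow_mul_odd (n := Fintype.card F + 1) (by omega)
    have hn2 : 2 ≤ n := by
      by_contra hlt
      rcases n with _ | _ | n
      · obtain ⟨m', rfl⟩ := hm; simp at hn; omega
      · obtain ⟨m', rfl⟩ := hm; simp at hn; omega
      · omega
    have hk : Odd r := Nat.odd_iff.2 (by omega)
    obtain ⟨z, hz, hN⟩ := exists_z hk hm hn2 (by omega) hn hsq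
    refine ⟨n, hn2, key n (m * r) (hasModel_three hker hneg hn2 z hz hN) (hm.mul hk) ?_⟩
    calc Fintype.card F ^ 2 - 1 = 2 * r * (Fintype.card F + 1) := by
          rw [hr]; ring_nf; omega
      _ = _ := by rw [hn]; ring

end Cfsg.Agent.H33.G2Two
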