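import Mathlib

/-!
The model of a Sylow 2-subgroup of `G₂(q)`, `q` odd: `(ℤ/N)²` extended by a four-group generated by
the exchange of the coordinates and by the inversion.
-/

set_option autoImplicit false

namespace Cfsg.Agent.H33.G2Two

/-- Elements `(a, b) σ^k ι^l`, `σ` exchanging the coordinates and `ι` inverting. -/
@[ext]
structure Mdl (N : ℕ) where
  a : ZMod N
  b : ZMod N
  k : Bool
  l : Bool
  deriving DecidableEq

namespace Mdl

variable {N : ℕ}

/-- Sign by a Boolean. -/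
def sgn (l : Bool) (x : ZMod N) : ZMod N := if l then -x else x

@[simp] theorem sgn_true (x : ZMod N) : sgn true x = -x := rfl
@[simp] theorem sgn_false (x : ZMod N) : sgn false x = x := rfl

instance : Mul (Mdl N) :=
  ⟨fun x y => ⟨x.a + sgn x.l (if x.k then y.b else y.a), x.b + sgn x.l (if x.k then y.a else y.b),
    xor x.k y.k, xor x.l y.l⟩⟩

instance : One (Mdl N) := ⟨⟨0, 0, false, false⟩⟩

instance : Inv (Mdl N) :=
  ⟨fun x => ⟨-(sgn x.l (if x.k then x.b else x.a)), -(sgn x.l (if x.k then x.a else x.b)), x.k, x.l⟩⟩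

theorem mul_def (x y : Mdl N) : x * y = ⟨x.a + sgn x.l (if x.k then y.b else y.a),
    x.b + sgn x.l (if x.k then y.a else y.b), xor x.k y.k, xor x.l y.l⟩ := rfl

theorem one_def : (1 : Mdl N) = ⟨0, 0, false, false⟩ := rfl

theorem inv_def (x : Mdl N) : x⁻¹ = ⟨-(sgn x.l (if x.k then x.b else x.a)),
    -(sgn x.l (if x.k then x.a else x.b)), x.k, x.l⟩ := rfl

instance : Group (Mdl N) where
  mul_assoc := by
    rintro ⟨a, b, k, l⟩ ⟨a', b', k', l'⟩ ⟨a'', b'', k'', l''⟩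
    cases k <;> cases l <;> cases k' <;> cases l' <;> cases k'' <;> cases l'' <;>
      simp [mul_def] <;> constructor <;> ring
  one_mul := by
    rintro ⟨a, b, k, l⟩
    simp [mul_def, one_def]
  mul_one := by
    rintro ⟨a, b, k, l⟩
    cases k <;> cases l <;> simp [mul_def, one_def]
  inv_mul_cancel := by
    rintro ⟨a, b, k, l⟩
    cases k <;> cases l <;> simp [mul_def, one_def, inv_def]

/-- The coordinates as a product. -/
def equivProd : Mdl N ≃ (ZMod N × ZMod N) × (Bool × Bool) where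
  toFun x := ((x.a, x.b), (x.k, x.l))
  invFun p := ⟨p.1.1, p.1.2, p.2.1, p.2.2⟩
  left_inv _ := rfl
  right_inv _ := rfl

instance [NeZero N] : Finite (Mdl N) := Finite.of_equiv _ equivProd.symm

theorem card [NeZero N] : Nat.card (Mdl N) = 4 * N ^ 2 := by
  rw [Nat.card_congr equivProd, Nat.card_prod, Nat.card_prod, Nat.card_prod, Nat.card_zmod,
    Nat.card_eq_fintype_card, Fintype.card_bool]
  ring

/-- Exchanging the two reflection classes. -/
def flip : Mdl N ≃* Mdl N where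
  toFun x := ⟨x.a, -x.b, x.k, xor x.k x.l⟩
  invFun x := ⟨x.a, -x.b, x.k, xor x.k x.l⟩
  left_inv := by rintro ⟨a, b, k, l⟩; cases k <;> simp
  right_inv := by rintro ⟨a, b, k, l⟩; cases k <;> simp
  map_mul' := by
    rintro ⟨a, b, k, l⟩ ⟨a', b', k', l'⟩
    cases k <;> cases l <;> cases k' <;> cases l' <;> simp [mul_def] <;> ring

theorem flip_apply (x : Mdl N) : flip x = ⟨x.a, -x.b, x.k, xor x.k x.l⟩ := rfl

theorem conj_k (g x : Mdl N) : (g * x * g⁻¹).k = x.k := by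
  obtain ⟨a, b, k, l⟩ := g; obtain ⟨a', b', k', l'⟩ := x
  cases k <;> cases k' <;> simp [mul_def, inv_def]

theorem conj_l (g x : Mdl N) : (g * x * g⁻¹).l = x.l := by
  obtain ⟨a, b, k, l⟩ := g; obtain ⟨a', b', k', l'⟩ := x
  cases l <;> cases l' <;> simp [mul_def, inv_def]

theorem commutator_kl (g x : Mdl N) :
    (g * x * g⁻¹ * x⁻¹).k = false ∧ (g * x * g⁻¹ * x⁻¹).l = false := by
  rw [mul_def (g * x * g⁻¹) x⁻¹, conj_k, conj_l]
  simp [inv_def]

/-- A translation. -/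
abbrev tr (u v : ZMod N) : Mdl N := ⟨u, v, false, false⟩

theorem conj_tr_iota (u v a b : ZMod N) :
    tr u v * ⟨a, b, false, true⟩ * (tr u v)⁻¹ = ⟨a + 2 * u, b + 2 * v, false, true⟩ := by
  simp [mul_def, inv_def]; constructor <;> ring

theorem conj_tr_sigma (u v a b : ZMod N) :
    tr u v * ⟨a, b, true, false⟩ * (tr u v)⁻¹ = ⟨a + (u - v), b + (v - u), true, false⟩ := by
  simp [mul_def, inv_def]; constructor <;> ring

theorem conj_tr_sigma_iota (u v a b : ZMod N) :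
    tr u v * ⟨a, b, true, true⟩ * (tr u v)⁻¹ = ⟨a + (u + v), b + (v + u), true, true⟩ := by
  simp [mul_def, inv_def]; constructor <;> ring

end Mdl

/-! ### Halving in `ℤ/2^n` -/

/-- The element of order two. -/
def half (n : ℕ) : ZMod (2 ^ n) := ((2 ^ (n - 1) : ℕ) : ZMod (2 ^ n))

variable {n : ℕ}

theorem two_half (hn : 1 ≤ n) : 2 * half n = 0 := by
  obtain ⟨m, rfl⟩ : ∃ m, n = m + 1 := ⟨n - 1, by omega⟩
  rw [half, show (2 : ZMod (2 ^ (m + 1))) = ((2 : ℕ) : ZMod (2 ^ (m + 1))) by norm_num, ← Nat.cast_mul,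
    ZMod.natCast_eq_zero_iff]
  simp [pow_succ, mul_comm]

theorem half_ne_zero (hn : 1 ≤ n) : half n ≠ 0 := by
  rw [half, Ne, ZMod.natCast_eq_zero_iff]
  intro h
  have := Nat.le_of_dvd (by positivity) h
  have h2 : 2 ^ (n - 1) < 2 ^ n := Nat.pow_lt_pow_right (by norm_num) (by omega)
  omega

theorem eq_zero_or_half (hn : 1 ≤ n) {x : ZMod (2 ^ n)} (hx : 2 * x = 0) : x = 0 ∨ x = half n := by
  obtain ⟨m, rfl⟩ : ∃ m, n = m + 1 := ⟨n - 1, by omega⟩
  haveI : NeZero (2 ^ (m + 1)) := ⟨by positivity⟩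
  obtain ⟨v, hv, rfl⟩ : ∃ v : ℕ, v < 2 ^ (m + 1) ∧ (v : ZMod (2 ^ (m + 1))) = x :=
    ⟨x.val, x.val_lt, ZMod.natCast_zmod_val x⟩
  rw [show (2 : ZMod (2 ^ (m + 1))) = ((2 : ℕ) : ZMod (2 ^ (m + 1))) by norm_num, ← Nat.cast_mul,
    ZMod.natCast_eq_zero_iff, pow_succ] at hx
  have h3 : 2 ^ m ∣ v := by
    obtain ⟨c, hc⟩ := hx
    exact ⟨c, by linarith⟩
  obtain ⟨c, rfl⟩ := h3
  have hc : c < 2 := by
    rw [pow_succ] at hv
    exact Nat.lt_of_mul_lt_mul_left hv
  interval_cases c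
  · exact Or.inl (by simp)
  · exact Or.inr (by simp [half])

theorem neg_half (hn : 1 ≤ n) : -half n = half n := by linear_combination -(two_half hn)

/-- Reduction mod two. -/
def par (hn : 1 ≤ n) : ZMod (2 ^ n) →+* ZMod 2 :=
  ZMod.castHom (dvd_pow_self 2 (by omega)) (ZMod 2)

theorem par_half (hn : 2 ≤ n) : par (show 1 ≤ n by omega) (half n) = 0 := by
  rw [half, par, map_natCast, ZMod.natCast_eq_zero_iff]
  exact dvd_pow_self 2 (by omega)

theorem exists_two_mul_iff (hn : 1 ≤ n) (x : ZMod (2 ^ n)) : (∃ u, 2 * u = x) ↔ par hn x = 0 := by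
  constructor
  · rintro ⟨u, rfl⟩
    rw [map_mul, map_ofNat]
    exact mul_eq_zero_of_left (by decide) _
  · intro h
    haveI : NeZero (2 ^ n) := ⟨by positivity⟩
    rw [← ZMod.natCast_zmod_val x, par, map_natCast, ZMod.natCast_eq_zero_iff] at h
    obtain ⟨c, hc⟩ := h
    exact ⟨c, by rw [← ZMod.natCast_zmod_val x, hc]; push_cast; rfl⟩

/-- The element whose double is the element of order two. -/
def quarter (n : ℕ) : ZMod (2 ^ n) := ((2 ^ (n - 2) : ℕ) : ZMod (2 ^ n))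

theorem two_quarter (hn : 2 ≤ n) : 2 * quarter n = half n := by
  rw [quarter, half, show (2 : ZMod (2 ^ n)) = ((2 : ℕ) : ZMod (2 ^ n)) by norm_num, ← Nat.cast_mul,
    ← pow_succ']
  congr 2
  omega

end Cfsg.Agent.H33.G2Two
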